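import Cfsg.Agent.H567.C7.HW

/-!
# (C7 orthogonal, part N3) A root element generates everything
-/

set_option autoImplicit false
set_option linter.unusedSectionVars false

namespace Cfsg.Agent.H567.C7

open QuadraticMap hiding proj
open Cfsg.Agent.LieClassical.OrthCore Cfsg.Agent.LieClassical.OrthTrans
open Cfsg.Agent.H882.Ten Cfsg.Agent.LieClassical.OrthFinite
open Cfsg.Agent.H883.C7 Cfsg.Agent.H883.Root

section one

variable {F V : Type*} [Field F] [AddCommGroup V] [Module F V] {Q : QuadraticForm F V}

theorem polar_siegel_sq {a b z : V} (hyp : Hyp Q a b) (hz : polar Q a z = 0) (hz' : polar Q b z = 0) :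
    polar Q a (siegel Q b z hyp.right hz' (siegel Q b z hyp.right hz' a)) = -(4 * Q z) := by
  have hza : polar Q z a = 0 := by rw [polar_comm]; exact hz
  have hzb : polar Q z b = 0 := by rw [polar_comm]; exact hz'
  have e1 : siegel Q b z hyp.right hz' a = a + z - Q z • b := by
    rw [siegel_apply, hyp.pair', hza]
    module
  rw [e1, siegel_apply]
  simp only [polar_add_right, polar_sub_right, polar_smul_right, hyp.polar_left, hyp.polar_right, hyp.pair,
    hyp.pair', hz, hz', hza, hzb, polar_self' z, smul_eq_mul]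
  ring

end one

variable {F : Type*} [Field F] {κ : Type*} [Fintype κ] [DecidableEq κ] {ι : Type*} [Fintype ι] [DecidableEq ι]
  {q : QuadraticForm F (κ → F)} {M : Subgroup (((ι → κ) → F) ≃ₗ[F] ((ι → κ) → F))}

theorem opE_single_tp (j : ι) (g : (κ → F) ≃ₗ[F] (κ → F)) (x : ι → (κ → F)) :
    opE (fun l => (if l = j then g else 1) * (if l = j then g else 1)) (tp x) =
      tp (Function.update x j (g (g (x j)))) := by
  rw [opE_tp]
  congr 1
  funext l
  by_cases h : l = j
  · subst h
    rw [if_pos rfl, Function.update_self]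
    rfl
  · rw [if_neg h, Function.update_of_ne h]
    rfl

theorem opE_cosingle_tp (j : ι) (g : ι → ((κ → F) ≃ₗ[F] (κ → F))) (x : ι → (κ → F)) :
    opE (fun l => (if l = j then 1 else g l) * (if l = j then 1 else g l)) (tp x) =
      tp (fun l => if l = j then x l else g l (g l (x l))) := by
  rw [opE_tp]
  congr 1
  funext l
  by_cases h : l = j
  · subst h
    rw [if_pos rfl, if_pos rfl]
    rfl
  · rw [if_neg h, if_neg h]
    rfl

/-- The scalars. -/
theorem stepA [Finite F] (H : Hyp7 q) (ht : 2 ≤ Fintype.card ι) (hM : Over q M) {a : ι → (κ → F)}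
    (ha : ∀ l, a l ≠ 0 ∧ q (a l) = 0) {j : ι} {z : κ → F} (hz : polar q (a j) z = 0)
    (h : Has (QT q ι) M (tp a) (tp (Function.update a j z))) :
    tp (Function.update a j z) ∈ HW (QT q ι) M (QT_tp H.two (ha j).2) := by
  obtain ⟨b, hyp⟩ := LieClassical.OrthTrans.exists_hyp H.nd (ha j).2 (ha j).1
  set c0 := polar q b z with hc0
  set z' := z - c0 • a j with hz'
  have e0 : tp (Function.update a j z) = tp (Function.update a j z') + c0 • tp a := by
    conv_rhs => rw [← Function.update_eq_self j a]
    rw [Function.update_idem, ← tp_update_smul, ← tp_update_add, hz', sub_add_cancel]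
  have hself : tp a ∈ HW (QT q ι) M (QT_tp H.two (ha j).2) := fun r => has_self (QT_tp H.two (ha j).2) r
  rw [e0]
  refine Submodule.add_mem _ ?_ (Submodule.smul_mem _ _ hself)
  have h1 : Has (QT q ι) M (tp a) (tp (Function.update a j z')) := by
    have := h.add_smul_self (-c0)
    rw [e0] at this
    have e : tp (Function.update a j z') + c0 • tp a + -c0 • tp a = tp (Function.update a j z') := by module
    rwa [e] at this
  have hz1 : polar q (a j) z' = 0 := by
    rw [hz', polar_sub_right, hz, polar_smul_right, hyp.polar_left, smul_zero, sub_zero]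
  have hz2 : polar q b z' = 0 := by
    rw [hz', polar_sub_right, polar_smul_right, hyp.pair', ← hc0, smul_eq_mul, mul_one, sub_self]
  have hperp := h1.perp
  have hsq : ∀ c : F, Has (QT q ι) M (tp a) ((c * c) • tp (Function.update a j z')) := by
    intro c
    by_cases hc : c = 0
    · rw [hc, zero_mul, zero_smul]
      exact has_zero h1.sing
    obtain ⟨g, -, hgO, -, g1, g2, g3, -⟩ := exists_torus0 hyp hc
    have hf : ∀ l, (if l = j then g else (1 : (κ → F) ≃ₗ[F] (κ → F))) ∈ O q := by
      intro l
      split_ifs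
      · exact hgO
      · exact (O q).one_mem
    have h3 := h1.map (opE_sq_mem_O H.two hf) (opE_sq_mem H.two (H.good ht) hM hf)
    rw [opE_single_tp, opE_single_tp, Function.update_self, Function.update_idem, g3 z' hz1 hz2, g3 z' hz1 hz2, g1,
      map_smul, g1, smul_smul, tp_update_smul, Function.update_eq_self] at h3
    exact h3.smul_right h1.sing hperp
  intro r
  have h3 := (hsq ((r + 1) * 2⁻¹)).sub (hsq ((r - 1) * 2⁻¹))
  rw [← sub_smul] at h3
  have e : (r + 1) * 2⁻¹ * ((r + 1) * 2⁻¹) - (r - 1) * 2⁻¹ * ((r - 1) * 2⁻¹) = r := by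
    have := H.two
    field_simp
    ring
  rwa [e] at h3

/-- The submodule of `tp a` is closed under the Siegel group of `a l` in slot `l`. -/
theorem closed [Finite F] (H : Hyp7 q) (ht : 2 ≤ Fintype.card ι) (hM : Over q M) {a : ι → (κ → F)}
    (ha : ∀ l, a l ≠ 0 ∧ q (a l) = 0) (hQ : QT q ι (tp a) = 0) (l : ι) (y : κ → F)
    (hy : polar q (a l) y = 0) (v : (ι → κ) → F) (hv : v ∈ HW (QT q ι) M hQ) :
    slE l (siegel q (a l) y (ha l).2 hy) v ∈ HW (QT q ι) M hQ := by
  refine map_mem_HW hv (slE_mem_O H.two l (siegel_mem_O (ha l).2 hy))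
    (slE_siegel_mem H.two (H.good ht) hM l (ha l).2 hy) ?_ hQ
  have e : siegel q (a l) y (ha l).2 hy (a l) = a l := by
    rw [siegel_apply, polar_self_of_sing (ha l).2, polar_comm q y, hy]
    module
  rw [slE_tp, e, Function.update_eq_self]

theorem stepC [Finite F] (H : Hyp7 q) (ht : 2 ≤ Fintype.card ι) (hM : Over q M) {a : ι → (κ → F)}
    (ha : ∀ l, a l ≠ 0 ∧ q (a l) = 0) {j : ι} {z : κ → F} (hz : polar q (a j) z = 0) (hqz : q z ≠ 0)
    (h : Has (QT q ι) M (tp a) (tp (Function.update a j z))) (hQ : QT q ι (tp a) = 0) {x : ι → (κ → F)}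
    (hx : x j = a j) : tp x ∈ HW (QT q ι) M hQ := by
  have hex : ∀ l, ∃ b y, Hyp q (a l) b ∧ polar q (a l) y = 0 ∧ polar q b y = 0 ∧ q y ≠ 0 := by
    intro l
    obtain ⟨b, hyp⟩ := LieClassical.OrthTrans.exists_hyp H.nd (ha l).2 (ha l).1
    obtain ⟨y, hy1, hy2, hy3⟩ := exists_nonsing_perp H.nd
      (by rw [Module.finrank_fintype_fun_eq_card]; exact H.three) hyp
    exact ⟨b, y, hyp, hy1, hy2, hy3⟩
  choose b y hyp hy1 hy2 hy3 using hex
  have h4 : (4 : F) ≠ 0 := by
    have : (4 : F) = 2 * 2 := by norm_num
    rw [this]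
    exact mul_ne_zero H.two H.two
  let s : ι → ((κ → F) ≃ₗ[F] (κ → F)) := fun l => siegel q (b l) (y l) (hyp l).right (hy2 l)
  have hs : ∀ l, s l ∈ O q := fun l => siegel_mem_O _ _
  have hf : ∀ l, (if l = j then (1 : (κ → F) ≃ₗ[F] (κ → F)) else s l) ∈ O q := by
    intro l
    split_ifs
    · exact (O q).one_mem
    · exact hs l
  set a' : ι → (κ → F) := fun l => if l = j then a l else s l (s l (a l)) with ha'
  have ha'j : a' j = a j := if_pos rfl
  have ha'l : ∀ l, l ≠ j → polar q (a' l) (a l) ≠ 0 := by
    intro l hl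
    have e : a' l = s l (s l (a l)) := if_neg hl
    rw [e, polar_comm, polar_siegel_sq (hyp l) (hy1 l) (hy2 l)]
    exact neg_ne_zero.2 (mul_ne_zero h4 (hy3 l))
  have hQ' : QT q ι (tp a') = 0 := QT_tp H.two (i := j) (by rw [ha'j]; exact (ha j).2)
  have h1 := map_mem_HW (stepA H ht hM ha hz h) (opE_sq_mem_O H.two hf) (opE_sq_mem H.two (H.good ht) hM hf)
    (opE_cosingle_tp j s a) hQ'
  rw [opE_cosingle_tp] at h1
  have e1 : (fun l => if l = j then Function.update a j z l else s l (s l (Function.update a j z l))) =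
      Function.update a' j z := by
    funext l
    by_cases hl : l = j
    · subst hl
      rw [if_pos rfl, Function.update_self, Function.update_self]
    · rw [if_neg hl, Function.update_of_ne hl, Function.update_of_ne hl]
      exact (if_neg hl).symm
  rw [e1] at h1
  have hzz : polar q z z ≠ 0 := by rw [polar_self']; exact mul_ne_zero H.two hqz
  have hmem : tp a' ∈ HW (QT q ι) M hQ := by
    refine mem_HW_of_comm2 h h1 ?_ ?_ ?_ ?_
    · exact polar_tp_zero H.two j (by rw [ha'j]; exact polar_self_of_sing (ha j).2)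
    · exact polar_tp_zero H.two j (by rw [Function.update_self, polar_comm]; exact hz)
    · exact polar_tp_zero H.two j (by rw [Function.update_self, ha'j]; exact hz)
    · refine polar_tp_ne H.two fun l => ?_
      by_cases hl : l = j
      · subst hl
        rw [Function.update_self, Function.update_self]
        exact hzz
      · rw [Function.update_of_ne hl, Function.update_of_ne hl]
        exact ha'l l hl
  have h5 := fill_all H.two H.nd H.three ha (closed H ht hM ha hQ) hmem (Finset.univ.erase j)
    (fun l hl => by rw [polar_comm]; exact ha'l l (Finset.ne_of_mem_erase hl)) x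
  convert h5 using 2
  funext l
  by_cases hl : l = j
  · subst hl
    rw [if_neg (Finset.notMem_erase _ _), ha'j, hx]
  · rw [if_pos (Finset.mem_erase.2 ⟨hl, Finset.mem_univ _⟩)]

theorem stepE0 [Finite F] (H : Hyp7 q) (ht : 2 ≤ Fintype.card ι) (hM : Over q M) {a : ι → (κ → F)}
    (ha : ∀ l, a l ≠ 0 ∧ q (a l) = 0) {j : ι} {z : κ → F} (hz : polar q (a j) z = 0) (hqz : q z ≠ 0)
    (h : Has (QT q ι) M (tp a) (tp (Function.update a j z))) (hQ : QT q ι (tp a) = 0) {i : ι} (hij : i ≠ j)
    {b : κ → F} (hb : Hyp q (a i) b) {x : ι → (κ → F)}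
    (hx1 : polar q (a i) (x i) = 0) (hx2 : polar q b (x i) = 0) : tp x ∈ HW (QT q ι) M hQ := by
  have hex : ∀ l, ∃ b, Hyp q (a l) b := fun l => LieClassical.OrthTrans.exists_hyp H.nd (ha l).2 (ha l).1
  choose b0 hyp0 using hex
  set b' : ι → (κ → F) := Function.update b0 i b with hb'
  have hyp : ∀ l, Hyp q (a l) (b' l) := by
    intro l
    by_cases hl : l = i
    · subst hl
      rw [hb', Function.update_self]
      exact hb
    · rw [hb', Function.update_of_ne hl]
      exact hyp0 l
  have hbi : b' i = b := by rw [hb', Function.update_self]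
  obtain ⟨y, hy1, hy2, hy3⟩ := exists_nonsing_perp H.nd
    (by rw [Module.finrank_fintype_fun_eq_card]; exact H.three) (hyp j)
  have h4 : (4 : F) ≠ 0 := by
    have : (4 : F) = 2 * 2 := by norm_num
    rw [this]
    exact mul_ne_zero H.two H.two
  set s := siegel q (b' j) y (hyp j).right hy2 with hsdef
  have hsO : s ∈ O q := siegel_mem_O _ _
  have hf : ∀ l, (if l = j then s else (1 : (κ → F) ≃ₗ[F] (κ → F))) ∈ O q := by
    intro l
    split_ifs
    · exact hsO
    · exact (O q).one_mem
  set a' : ι → (κ → F) := Function.update a j (s (s (a j))) with ha'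
  have ha'j : a' j = s (s (a j)) := by rw [ha', Function.update_self]
  have ha'l : ∀ l, l ≠ j → a' l = a l := fun l hl => by rw [ha', Function.update_of_ne hl]
  have hpol : polar q (a' j) (a j) ≠ 0 := by
    rw [ha'j, polar_comm, polar_siegel_sq (hyp j) hy1 hy2]
    exact neg_ne_zero.2 (mul_ne_zero h4 hy3)
  have ha'0 : ∀ l, a' l ≠ 0 ∧ q (a' l) = 0 := by
    intro l
    by_cases hl : l = j
    · subst hl
      rw [ha'j]
      refine ⟨fun h0 => ?_, by rw [hsO, hsO]; exact (ha l).2⟩
      rw [LinearEquiv.map_eq_zero_iff, LinearEquiv.map_eq_zero_iff] at h0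
      exact (ha l).1 h0
    · rw [ha'l l hl]
      exact ha l
  have h1 := h.map (opE_sq_mem_O H.two hf) (opE_sq_mem H.two (H.good ht) hM hf)
  rw [opE_single_tp, opE_single_tp, Function.update_self, Function.update_idem, ← ha'] at h1
  have e1 : Function.update a j (s (s z)) = Function.update a' j (s (s z)) := by
    rw [ha', Function.update_idem]
  rw [e1] at h1
  have hz' : polar q (a' j) (s (s z)) = 0 := by rw [ha'j, polar_map hsO, polar_map hsO]; exact hz
  have hqz' : q (s (s z)) ≠ 0 := by rw [hsO, hsO]; exact hqz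
  have hQ' : QT q ι (tp a') = 0 := QT_tp H.two (ha'0 j).2
  -- first the vectors with `x j = a' j`
  have key : ∀ x : ι → (κ → F), x j = a' j → polar q (a i) (x i) = 0 → polar q b (x i) = 0 →
      tp x ∈ HW (QT q ι) M hQ := by
    intro x hxj hx1 hx2
    have h3 := stepC H ht hM ha'0 hz' hqz' h1 hQ' hxj
    have h5 : tp (Function.update b' j (a j)) ∈ HW (QT q ι) M hQ :=
      stepC H ht hM ha hz hqz h hQ (by rw [Function.update_self])
    refine mem_HW_of_comm (has_of_mem h5) h3 ?_ ?_ ?_ ?_ ?_
    · exact polar_tp_zero H.two i (by rw [ha'l i hij]; exact polar_self_of_sing (ha i).2)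
    · exact polar_tp_zero H.two i (by rw [polar_comm]; exact hx1)
    · exact QT_tp H.two (i := j) (by rw [hxj]; exact (ha'0 j).2)
    · exact polar_tp_zero H.two i (by rw [Function.update_of_ne hij, hbi, polar_comm]; exact hx2)
    · refine polar_tp_ne H.two fun l => ?_
      by_cases hl : l = j
      · subst hl
        rw [Function.update_self]
        exact hpol
      · rw [Function.update_of_ne hl, ha'l l hl, (hyp l).pair]
        exact one_ne_zero
  have h6 := key (Function.update x j (a' j)) (by rw [Function.update_self])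
    (by rw [Function.update_of_ne hij]; exact hx1) (by rw [Function.update_of_ne hij]; exact hx2)
  have h7 := fill H.two H.nd H.three ha j (closed H ht hM ha hQ j) h6
    (by rw [Function.update_self, polar_comm]; exact hpol) (x j)
  rwa [Function.update_idem, Function.update_eq_self] at h7

theorem stepE [Finite F] (H : Hyp7 q) (ht : 2 ≤ Fintype.card ι) (hM : Over q M) {a : ι → (κ → F)}
    (ha : ∀ l, a l ≠ 0 ∧ q (a l) = 0) {j : ι} {z : κ → F} (hz : polar q (a j) z = 0) (hqz : q z ≠ 0)
    (h : Has (QT q ι) M (tp a) (tp (Function.update a j z))) (hQ : QT q ι (tp a) = 0) {i : ι} (hij : i ≠ j)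
    {x : ι → (κ → F)} (hx1 : polar q (a i) (x i) = 0) : tp x ∈ HW (QT q ι) M hQ := by
  obtain ⟨b, hyp⟩ := LieClassical.OrthTrans.exists_hyp H.nd (ha i).2 (ha i).1
  obtain ⟨y, hy1, hy2, hy3⟩ := exists_nonsing_perp H.nd
    (by rw [Module.finrank_fintype_fun_eq_card]; exact H.three) hyp
  have h0 : ∀ x : ι → (κ → F), polar q (a i) (x i) = 0 → polar q b (x i) = 0 → tp x ∈ HW (QT q ι) M hQ :=
    fun x h1 h3 => stepE0 H ht hM ha hz hqz h hQ hij hyp h1 h3
  have h1 : tp (Function.update x i y) ∈ HW (QT q ι) M hQ :=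
    h0 _ (by rw [Function.update_self]; exact hy1) (by rw [Function.update_self]; exact hy2)
  have h3 : tp (Function.update x i (a i)) ∈ HW (QT q ι) M hQ := by
    have h4 := closed H ht hM ha hQ i y hy1 _ h1
    have e : siegel q (a i) y (ha i).2 hy1 y = y + (-(2 * q y)) • a i := by
      rw [siegel_apply, hy1, polar_self']
      module
    rw [slE_tp, Function.update_self, Function.update_idem, e, tp_update_add, tp_update_smul] at h4
    have h5 := Submodule.sub_mem _ h4 h1
    rw [add_sub_cancel_left] at h5
    exact (Submodule.smul_mem_iff _ (neg_ne_zero.2 (mul_ne_zero H.two hy3))).1 h5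
  have h4 : tp (Function.update x i (x i - polar q b (x i) • a i)) ∈ HW (QT q ι) M hQ := by
    refine h0 _ ?_ ?_
    · rw [Function.update_self, polar_sub_right, hx1, polar_smul_right, hyp.polar_left, smul_zero, sub_zero]
    · rw [Function.update_self, polar_sub_right, polar_smul_right, hyp.pair', smul_eq_mul, mul_one, sub_self]
  have h5 := Submodule.add_mem _ h4 (Submodule.smul_mem _ (polar q b (x i)) h3)
  rwa [← tp_update_smul, ← tp_update_add, sub_add_cancel, Function.update_eq_self] at h5

/-- The pure vectors with a slot orthogonal to `a l` span the orthogonal complement of `tp a`. -/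
theorem mem_of_perp (h2 : (2 : F) ≠ 0) {a b : ι → (κ → F)} (hyp : ∀ l, Hyp q (a l) (b l))
    {W : Submodule F ((ι → κ) → F)} (hW : ∀ (x : ι → (κ → F)) (l : ι), polar q (a l) (x l) = 0 → tp x ∈ W)
    {v : (ι → κ) → F} (hv : polar (QT q ι) (tp a) v = 0) : v ∈ W := by
  have key : ∀ (x : ι → (κ → F)) (S : Finset ι),
      tp x - (∏ l ∈ S, polar q (a l) (x l)) • tp (fun l => if l ∈ S then b l else x l) ∈ W := by
    intro x S
    induction S using Finset.induction_on with
    | empty => simp
    | insert i S hi ih =>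
      set y : ι → (κ → F) := fun l => if l ∈ S then b l else x l with hy
      have hyi : y i = x i := if_neg hi
      set c := polar q (a i) (x i) with hc
      have e1 : tp y = c • tp (Function.update y i (b i)) + tp (Function.update y i (x i - c • b i)) := by
        rw [← tp_update_smul, ← tp_update_add, add_sub_cancel, ← hyi, Function.update_eq_self]
      have h1 : tp (Function.update y i (x i - c • b i)) ∈ W := by
        refine hW _ i ?_
        rw [Function.update_self, polar_sub_right, polar_smul_right, (hyp i).pair, smul_eq_mul, mul_one, ← hc,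
          sub_self]
      have e2 : (fun l => if l ∈ insert i S then b l else x l) = Function.update y i (b i) := by
        funext l
        by_cases hl : l = i
        · subst hl
          rw [if_pos (Finset.mem_insert_self _ _), Function.update_self]
        · rw [Function.update_of_ne hl]
          by_cases hlS : l ∈ S
          · rw [if_pos (Finset.mem_insert_of_mem hlS)]
            exact (if_pos hlS).symm
          · rw [if_neg]
            · exact (if_neg hlS).symm
            · intro h
              rcases Finset.mem_insert.1 h with h | h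
              · exact hl h
              · exact hlS h
      rw [e2, Finset.prod_insert hi, ← hc]
      have h3 := W.add_mem ih (W.smul_mem (∏ l ∈ S, polar q (a l) (x l)) h1)
      rw [e1] at h3
      have e3 : tp x - (∏ l ∈ S, polar q (a l) (x l)) •
          (c • tp (Function.update y i (b i)) + tp (Function.update y i (x i - c • b i))) +
          (∏ l ∈ S, polar q (a l) (x l)) • tp (Function.update y i (x i - c • b i)) =
          tp x - (c * ∏ l ∈ S, polar q (a l) (x l)) • tp (Function.update y i (b i)) := by module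
      rwa [e3] at h3
  have h1 : W.mkQ ∘ₗ (LinearMap.id - (polarBilin (QT q ι) (tp a)).smulRight (tp b)) = 0 := by
    refine tp_ext fun x => ?_
    rw [LinearMap.comp_apply, LinearMap.zero_apply, Submodule.mkQ_apply, Submodule.Quotient.mk_eq_zero,
      LinearMap.sub_apply, LinearMap.id_apply, LinearMap.smulRight_apply, polarBilin_apply_apply, polar_tp h2]
    have h3 := key x Finset.univ
    simpa only [Finset.mem_univ, if_true] using h3
  have h3 := LinearMap.congr_fun h1 v
  rw [LinearMap.comp_apply, LinearMap.zero_apply, Submodule.mkQ_apply, Submodule.Quotient.mk_eq_zero,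
    LinearMap.sub_apply, LinearMap.id_apply, LinearMap.smulRight_apply, polarBilin_apply_apply, hv, zero_smul,
    sub_zero] at h3
  exact h3

/-- **A root element generates everything.** -/
theorem E_le_of_root [Finite F] (H : Hyp7 q) (ht : 2 ≤ Fintype.card ι) (hM : Over q M) {a : ι → (κ → F)}
    (ha : ∀ l, a l ≠ 0 ∧ q (a l) = 0) {j : ι} {z : κ → F} (hz : polar q (a j) z = 0) (hqz : q z ≠ 0)
    (h : Has (QT q ι) M (tp a) (tp (Function.update a j z))) : E (QT q ι) ≤ M := by
  have hQ : QT q ι (tp a) = 0 := QT_tp H.two (ha j).2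
  have hex : ∀ l, ∃ b y, Hyp q (a l) b ∧ polar q (a l) y = 0 ∧ polar q b y = 0 ∧ q y ≠ 0 := by
    intro l
    obtain ⟨b, hyp⟩ := LieClassical.OrthTrans.exists_hyp H.nd (ha l).2 (ha l).1
    obtain ⟨y, hy1, hy2, hy3⟩ := exists_nonsing_perp H.nd
      (by rw [Module.finrank_fintype_fun_eq_card]; exact H.three) hyp
    exact ⟨b, y, hyp, hy1, hy2, hy3⟩
  choose b y hyp hy1 hy2 hy3 using hex
  obtain ⟨i, hij⟩ : ∃ i, i ≠ j := by
    have : Nontrivial ι := Fintype.one_lt_card_iff_nontrivial.1 (by omega)
    exact exists_ne j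
  have hall : ∀ (x : ι → (κ → F)) (l : ι), polar q (a l) (x l) = 0 → tp x ∈ HW (QT q ι) M hQ := by
    intro x l hl
    by_cases hlj : l = j
    · subst hlj
      refine stepE H ht hM ha (j := i) (z := y i) (hy1 i) (hy3 i) ?_ hQ (Ne.symm hij) hl
      exact has_of_mem (hu := hQ) (stepE H ht hM ha hz hqz h hQ hij (by rw [Function.update_self]; exact hy1 i))
    · exact stepE H ht hM ha hz hqz h hQ hlj hl
  have hfull : Full (QT q ι) M (tp a) := ⟨hQ, fun w hw => has_of_mem (hu := hQ) (mem_of_perp H.two hyp hall hw)⟩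
  let s : ι → ((κ → F) ≃ₗ[F] (κ → F)) := fun l => siegel q (b l) (y l) (hyp l).right (hy2 l)
  have hs : ∀ l, s l ∈ O q := fun l => siegel_mem_O _ _
  have hfull' := hfull.map (opE_sq_mem_O H.two hs) (opE_sq_mem H.two (H.good ht) hM hs)
  have h4 : (4 : F) ≠ 0 := by
    have : (4 : F) = 2 * 2 := by norm_num
    rw [this]
    exact mul_ne_zero H.two H.two
  refine E_le_of_full_pair (H.good ht) hfull hfull' ?_
  rw [opE_tp]
  refine polar_tp_ne H.two fun l => ?_
  show polar q (a l) (s l (s l (a l))) ≠ 0
  rw [polar_siegel_sq (hyp l) (hy1 l) (hy2 l)]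
  exact neg_ne_zero.2 (mul_ne_zero h4 (hy3 l))

end Cfsg.Agent.H567.C7
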